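import Cfsg.Agent.Lib.Helper7.Sys
import Cfsg.Agent.Lib.Helper7.TabG2
import Cfsg.Agent.Lib.Helper7.Words
import Cfsg.Agent.Lib.Helper7.F3G2
import Cfsg.Agent.Lib.Helper7.HDG2
import Cfsg.Agent.Lib.Helper7.HXG2
import Cfsg.Agent.Lib.Helper7.NHG2
import Cfsg.Agent.Lib.Helper7.CSG2
import Cfsg.Agent.Lib.Helper7.Sys2
import Cfsg.Agent.Lib.Helper7.HCard
import Cfsg.Agent.Lib.Helper7.PoinTab
import Cfsg.Agent.Lib.Helper7.PolyList
import Cfsg.Agent.Lib.Helper7.Perf
import Cfsg.Agent.Lib.Helper7.Sys5
import Cfsg.Agent.Lib.Helper7.OrderFin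

/-! The order of `G2(q)`: helper7's proof (S1059), repeated here with the imports for type `G2` only,
so that the closure does not contain the tables of the other types. -/

set_option autoImplicit false

namespace Cfsg.Agent.Lib.Helper3.G24c

open Cfsg.Lie Cfsg.Agent.Lib.Helper7


set_option maxHeartbeats 0 in
theorem addG2_0 : allFrom 0 12 (fun r => allLt 14 (addChk fastG2 r)) = true := by decide +kernel
theorem addG2 : ∀ r < 12, (fun r => allLt 14 (addChk fastG2 r)) r = true := by
  intro r hr
  exact allFrom_sound addG2_0 r (by omega) (by omega)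


noncomputable def sysG2 : Sys chevG2 where
  X := fastG2
  W := fastWG2
  ag := agreeG2
  agW := agreeWG2
  ag2 := agree2G2
  add := fun r hr => allLt_sound (addG2 r hr)
  f3 := f3G2
  hd := hdG2
  simpA := simpAG2
  hx := hxG2
  nh := nhG2
  C := cmCG2
  b1 := 7
  b2 := 6
  hb1 := by decide +kernel
  hb2 := by decide +kernel
  cB1 := cmBG2_7
  cB2 := cmBG2_6
  cS := cmSG2





set_option maxHeartbeats 0 in
noncomputable def sys2G2 : Sys2 chevG2 where
  toSys := sysG2
  even := by decide +kernel
  pos := by decide +kernel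
  ref := by decide +kernel
  j1 := 0
  j2 := 1
  hj1 := by decide +kernel
  hj2 := by decide +kernel
  hbj1 := by decide +kernel
  hbj2 := by decide +kernel
  t1 := by decide +kernel
  w0 := [0, 1, 0, 1, 0, 1]
  hw0 := by decide +kernel
  posOK := by decide +kernel
  negOK := by decide +kernel





set_option maxHeartbeats 0 in
theorem hcG2 {F : Type*} [Field F] [Fintype F] :
    (∏ k : Fin chevG2.rank, Nat.gcd (([1, 1] : List ℕ).getD k 1) (Fintype.card F - 1)) *
      Nat.card (chevG2.diagonalSubgroup F) = (Fintype.card F - 1) ^ chevG2.rank :=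
  sys2G2.card_diag [[0, -1], [1, 2]]
    [[2, 1], [-1, 0]]
    [[1, 2], [0, 1]]
    [[1, -2], [0, 1]]
    [1, 1] (by decide +kernel) (by decide +kernel) (by decide +kernel) (by decide +kernel)


theorem hcardG2 {F : Type*} [Field F] [Fintype F] : 1 * Nat.card (chevG2.diagonalSubgroup F) = (Fintype.card F - 1) ^ chevG2.rank := by
  have h := hcG2 (F := F)
  have e : (∏ k : Fin chevG2.rank, Nat.gcd (([1, 1] : List ℕ).getD k 1) (Fintype.card F - 1)) = 1 := by
    show (∏ k : Fin 2, _) = _
    simp [Fin.prod_univ_succ]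
  rwa [e] at h





noncomputable def poG2_0 : StepC where
  I := 3
  J := 1
  m := 6
  TP := 0x5030207010a040908060b0106040208000b030907050a050a070309000b0208040106060b080409010a02070300050a0b090708050603040200010b0a09080706050403020100
  PG := 0x10400030102000101000000
  ACT := 0x40605030204030100020106
  θ := 11
  IX := 0x100000002030000000405
  Psi := 0x90

set_option maxHeartbeats 0 in
theorem poG2_0_G : poG2_0.chkG fastG2 fastWG2 = true := by decide +kernel

set_option maxHeartbeats 0 in
theorem poG2_0_A_0 : allFrom 0 6 (StepC.chkA fastG2 fastWG2 poG2_0) = true := by decide +kernel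
theorem poG2_0_A : ∀ r < 6, (StepC.chkA fastG2 fastWG2 poG2_0) r = true := by
  intro r hr
  exact allFrom_sound poG2_0_A_0 r (by omega) (by omega)

set_option maxHeartbeats 0 in
theorem poG2_0_H : histP (Sys2.cntF fastG2 poG2_0) 6 = [1, 1, 1, 1, 1, 1] := by decide +kernel

noncomputable def poG2_1 : StepC where
  I := 1
  J := 0
  m := 2
  TP := 0xb060809040a0107020305000b0a09080706050403020100
  PG := 0x0
  ACT := 0x1
  θ := 7
  IX := 0x100000000
  Psi := 0x0

set_option maxHeartbeats 0 in
theorem poG2_1_G : poG2_1.chkG fastG2 fastWG2 = true := by decide +kernel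

set_option maxHeartbeats 0 in
theorem poG2_1_A_0 : allFrom 0 2 (StepC.chkA fastG2 fastWG2 poG2_1) = true := by decide +kernel
theorem poG2_1_A : ∀ r < 2, (StepC.chkA fastG2 fastWG2 poG2_1) r = true := by
  intro r hr
  exact allFrom_sound poG2_1_A_0 r (by omega) (by omega)

set_option maxHeartbeats 0 in
theorem poG2_1_H : histP (Sys2.cntF fastG2 poG2_1) 2 = [1, 1] := by decide +kernel

set_option maxHeartbeats 0 in
theorem poIdG2 : prodP [[1, 1, 1, 1, 1, 1], [1, 1]] = prodP ([2, 6].map geomP) := by decide +kernel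

theorem poinG2 (q : ℕ) : poin (Sys2.posF chevG2) (sys2G2.WI 3) q =
    (([2, 6].map geomP).map fun L => evalP L q).prod := by
  have h0 : poin (Sys2.posF chevG2) (sys2G2.WI 3) q =
      evalP [1, 1, 1, 1, 1, 1] q * poin (Sys2.posF chevG2) (sys2G2.WI 1) q := by
    rw [← poG2_0_H, evalP_histP]
    exact sys2G2.step poG2_0 poG2_0_G poG2_0_A q
  have h1 : poin (Sys2.posF chevG2) (sys2G2.WI 1) q =
      evalP [1, 1] q * poin (Sys2.posF chevG2) (sys2G2.WI 0) q := by
    rw [← poG2_1_H, evalP_histP]
    exact sys2G2.step poG2_1 poG2_1_G poG2_1_A q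
  have hl : poin (Sys2.posF chevG2) (sys2G2.WI 0) q = 1 := by rw [Sys2.WI_zero, poin_bot]
  rw [← evalP_prodP, ← poIdG2, evalP_prodP, h0, h1, hl]
  simp only [List.map_cons, List.map_nil, List.prod_cons, List.prod_nil, mul_one, mul_assoc]





set_option maxHeartbeats 0 in
noncomputable def sys4G2 : Sys4 chevG2 where
  toSys2 := sys2G2
  noDbl := by decide +kernel
  pk := [2, 1]
  px := [0, 1]
  py := [0, 11]
  pj := [1, 0]
  perf := by decide +kernel
  needA := true
  hneedA := by decide +kernel
  par := [0, 0]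
  dep := [0, 1]
  irr := by decide +kernel
  lpos := by decide +kernel





set_option maxHeartbeats 0 in
theorem t2G2_0 : allFrom 0 12 (t2Chk fastG2) = true := by decide +kernel
theorem t2G2 : ∀ r < 12, (t2Chk fastG2) r = true := by
  intro r hr
  exact allFrom_sound t2G2_0 r (by omega) (by omega)

set_option maxHeartbeats 0 in
noncomputable def sys5G2 : Sys5 chevG2 where
  toSys4 := sys4G2
  t2 := t2G2
  Lv := 0x35000000340000002c00000024000000230000001c0000001a00000013000000120000000a0000000200000001
  C0 := 27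
  hC := by decide +kernel
  levOK := by decide +kernel
  Bz := 0x10000010000011010010000010000010010000000000000000000000000000000000000
  bezOK := by decide +kernel


theorem card_G2 {F : Type*} [Field F] [Fintype F] {q : ℕ} (hq : Fintype.card F = q) :
    Nat.card ↥(Cfsg.Lie.chevG2.group F) = q ^ 6 * (q ^ 2 - 1) * (q ^ 6 - 1) := by
  subst hq
  have h := Sys5.order_formula sys5G2 (F := F) 3 (by decide) 1 [2, 6] rfl
    hcardG2 (poinG2 _)
  have hn : Cfsg.Lie.chevG2.nroots / 2 = 6 := by decide
  rw [hn] at h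
  simpa [mul_assoc] using h

end Cfsg.Agent.Lib.Helper3.G24c
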