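import Cfsg.Agent.Lib.Helper3.G24.Mat
import Cfsg.Agent.Lib.Helper3.Graph6
import Cfsg.Agent.Lib.Helper3.G24.CardG2

set_option autoImplicit false
set_option maxRecDepth 100000

namespace Cfsg.Agent.Lib.Helper3.G24

open Cfsg.Agent.Lib.Helper11 Cfsg.Agent.Lib.Helper3 Matrix

set_option maxHeartbeats 0

/-- the index type -/
abbrev II : Type := Cfsg.Lie.chevG2.Idx

/-- numbering of the coordinates -/
def ee : II ≃ Fin 14 where
  toFun
    | .inl i => ⟨i.val, by have := i.2; simp only [Cfsg.Lie.chevG2] at this; omega⟩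
    | .inr i => ⟨2 + i.val, by have := i.2; simp only [Cfsg.Lie.chevG2] at this; omega⟩
  invFun k := if h : k.val < 2 then .inl ⟨k.val, h⟩ else .inr ⟨k.val - 2, by
    have := k.2; simp only [Cfsg.Lie.chevG2]; omega⟩
  left_inv := by decide
  right_inv := by decide

theorem lenR (w : List ℕ) : ∀ W ∈ w.map RR, W.length ≤ 14 := by
  intro W hW
  obtain ⟨x, _, rfl⟩ := List.mem_map.1 hW
  unfold RR
  split <;> simp

theorem RR_eq : ∀ x ∈ xs, toM ee (RR x) = Cfsg.Lie.chevG2.xMat F4 (rootOf x).1 (rootOf x).2 := by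
  decide +kernel

theorem sqOK : ∀ x ∈ xs, ∀ j < 14, mvW ([x, x].map RR) (basL 14 j) = mvW ([].map RR) (basL 14 j) := by
  decide +kernel

theorem sq_mat (x : ℕ) (hx : x ∈ xs) : toM ee (RR x) * toM ee (RR x) = 1 := by
  have := prod_toM_eq ee ([x, x].map RR) ([].map RR) (lenR _) (lenR _) (sqOK x hx)
  simpa using this

/-- the Chevalley group -/
abbrev GG : Subgroup (GL II F4) := Cfsg.Lie.chevG2.group F4

open Classical in
/-- the root elements -/
noncomputable def rr (x : ℕ) : GG :=
  if hx : x ∈ xs then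
    ⟨⟨toM ee (RR x), toM ee (RR x), sq_mat x hx, sq_mat x hx⟩,
      Subgroup.subset_closure ⟨(rootOf x).1, (rootOf x).2, RR_eq x hx⟩⟩
  else 1

/-- matrices of the elements -/
def TT : GG →* Matrix II II F4 := (Units.coeHom _).comp GG.subtype

theorem TT_rr (x : ℕ) (hx : x ∈ xs) : TT (rr x) = toM ee (RR x) := by
  unfold rr
  rw [dif_pos hx]
  rfl

theorem TT_word (w : List ℕ) (hw : ∀ l ∈ w, l ∈ xs) :
    TT ((w.map rr).prod) = ((w.map RR).map (toM ee)).prod := by
  induction w with
  | nil => simp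
  | cons a t ih =>
    rw [List.map_cons, List.prod_cons, map_mul, TT_rr a (hw a (by simp)),
      ih (fun l hl => hw l (by simp [hl]))]
    simp

noncomputable def vM (l : ℕ) : GG :=
  if l = 1 then (w1.map rr).prod else if l = 2 then (w2.map rr).prod else 1

theorem card_g2 : Nat.card GG = 251596800 := by
  have h := Cfsg.Agent.Lib.Helper3.G24c.card_G2 (F := F4) (q := 4) F4.card_eq
  rw [h]
  norm_num

/-- the points -/
def pp : Fin 1365 → II → F4 := fun i => toV ee (pt i)

theorem notProp : ∀ c : F4, pp wi ≠ c • pp wj := by decide +kernel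

theorem img_wi : vL ntl deg 1 wi = wj :=
  setup.img_of_chk 1 wi wj wi.2 wj.2 (by decide +kernel)

theorem g2_iso : Nonempty (GG ≃* lgrp (vL ntl deg) [1, 2]) := by
  apply iso_of_graph_simple_card (projGraph TT pp) vM (vL ntl deg) [1, 2] _ simple 251596800
    (by norm_num) card_eq card_g2
  · refine ⟨vL ntl deg 1, mem_lgrp _ (by simp), ?_⟩
    intro h
    rw [mem_projGraph] at h
    obtain ⟨c, _, hc⟩ := h wi
    rw [map_one, Matrix.one_mulVec, img_wi] at hc
    exact notProp c hc
  · intro x hx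
    simp only [List.mem_cons, List.mem_nil_iff, or_false] at hx
    rcases hx with rfl | rfl
    · exact setup.mem_projGraph_of_chkR (by norm_num [deg]) TT _ ee [W1L] (by decide)
        ((TT_word w1 (by decide)).trans (prod_toM_eq ee _ _ (lenR _) (by decide) prodOK1)) pt
        (fun i => ptOf_length _ _ _ _ _) _ 1 MS1 ms1 chk1
    · exact setup.mem_projGraph_of_chkR (by norm_num [deg]) TT _ ee [W2L] (by decide)
        ((TT_word w2 (by decide)).trans (prod_toM_eq ee _ _ (lenR _) (by decide) prodOK2)) pt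
        (fun i => ptOf_length _ _ _ _ _) _ 2 MS2 ms2 chk2

end Cfsg.Agent.Lib.Helper3.G24
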