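import Cfsg.Agent.Lib.Helper3.G24.Iso
import Cfsg.Agent.Lib.Helper3.MatChk
import Cfsg.Agent.S1680
import Cfsg.Agent.S1694

set_option autoImplicit false
set_option maxRecDepth 100000

namespace Cfsg.Agent.Lib.Helper3.G24

open Cfsg.Agent.Lib.Helper11 Cfsg.Agent.Lib.Helper3 Cfsg.Spor Cfsg.Spor.Suz

set_option maxHeartbeats 0

/-- the presentation map -/
noncomputable abbrev mkS : FreeGroup Gen →* Cfsg.Spor.Suz :=
  PresentedGroup.mk (coxRelators edges ∪ {r | r ∈ extra})

/-- the subgroup `G2(4)` -/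
noncomputable abbrev HH : Subgroup Cfsg.Spor.Suz :=
  (Subgroup.closure ({a, b, c, d, e, f} : Set (FreeGroup Gen))).map mkS

/-- the generators in the presented group -/
noncomputable def vG (l : ℕ) : Cfsg.Spor.Suz :=
  if l = 1 then mkS (e1.eval (fun l => Suz1782.LTFm.getD l 1))
  else if l = 2 then mkS (e2.eval (fun l => Suz1782.LTFm.getD l 1)) else 1

theorem pchk1 : ptChk (ntOf Suz1782.ntl) (e1.letters Suz1782.INVm) (tb PTH 11) (tb IMG1 11) ntl 1 1365 := by
  decide +kernel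
theorem pchk2 : ptChk (ntOf Suz1782.ntl) (e2.letters Suz1782.INVm) (tb PTH 11) (tb IMG2 11) ntl 2 1365 := by
  decide +kernel
theorem bkOK : ∀ i < 1365, tb BK 11 (tb PTH 11 i) = i := by decide +kernel

theorem cardH : Nat.card HH = 251596800 := by
  have h1 := Cfsg.Agent.S1680.result.1
  have h2 := Cfsg.Agent.S1694.result.2
  have h3 := HH.card_mul_index
  rw [h2] at h3
  have h4 : HH.index = 1782 := h1
  rw [h4] at h3
  exact Nat.eq_of_mul_eq_mul_right (by norm_num : 0 < 1782) (h3.trans (by norm_num))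

theorem memL (x : FreeGroup Gen) (hx : x ∈ ({a, b, c, d, e, f} : Set (FreeGroup Gen))) :
    mkS x ∈ HH := Subgroup.mem_map_of_mem _ (Subgroup.subset_closure hx)

theorem isoH : Nonempty (HH ≃* lgrp (vL ntl deg) [1, 2]) := by
  have hfin : Finite HH := Nat.finite_of_card_ne_zero (by rw [cardH]; norm_num)
  have hv1 : vG 1 = mkS (e1.eval (fun l => Suz1782.LTFm.getD l 1)) := by simp [vG]
  have hv2 : vG 2 = mkS (e2.eval (fun l => Suz1782.LTFm.getD l 1)) := by simp [vG]
  have h1 : mkS (Suz1782.LTFm.getD 1 1) ∈ HH := memL a (by simp)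
  have h2 : mkS (Suz1782.LTFm.getD 2 1) ∈ HH := memL b (by simp)
  have h3 : mkS (Suz1782.LTFm.getD 3 1) ∈ HH := memL c (by simp)
  have h4 : mkS (Suz1782.LTFm.getD 4 1) ∈ HH := memL d (by simp)
  have h5 : mkS (Suz1782.LTFm.getD 5 1) ∈ HH := memL e (by simp)
  have h6 : mkS (Suz1782.LTFm.getD 6 1) ∈ HH := memL f (by simp)
  refine (iso_of_graph_card (ptGraph Suz1782.psi (fun i : Fin 1365 => tb PTH 11 i))
    (ptGraph_fun _ _ (inj_of_leftInv 1365 _ (tb BK 11) bkOK)) vG (vL ntl deg) [1, 2] ?_ HH ?_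
    251596800 card_eq cardH).2
  · intro x hx
    simp only [List.mem_cons, List.mem_nil_iff, or_false] at hx
    rcases hx with rfl | rfl
    · rw [hv1]
      exact setup.mem_ptGraph_of_chk Suz1782.psi (ntOf Suz1782.ntl) _
        (ntOf_ok Suz1782.ntl _ Suz1782.netsOK) _ _ (Suz1782.psi_eval e1) _ _ 1 pchk1
    · rw [hv2]
      exact setup.mem_ptGraph_of_chk Suz1782.psi (ntOf Suz1782.ntl) _
        (ntOf_ok Suz1782.ntl _ Suz1782.netsOK) _ _ (Suz1782.psi_eval e2) _ _ 2 pchk2
  · intro x hx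
    simp only [List.mem_cons, List.mem_nil_iff, or_false] at hx
    rcases hx with rfl | rfl
    · rw [hv1]
      simp only [e1, WExp.eval, map_mul]
      assumption
    · rw [hv2]
      simp only [e2, WExp.eval, map_mul]
      repeat' apply Subgroup.mul_mem
      all_goals assumption

theorem isoG2 : Nonempty (HH ≃* Cfsg.Lie.chevG2.group F4) := by
  obtain ⟨e1⟩ := isoH
  obtain ⟨e2⟩ := g2_iso
  exact ⟨e1.trans e2.symm⟩

end Cfsg.Agent.Lib.Helper3.G24
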